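import Cfsg.Agent.R2.T1.N6D.Ineq3
import Cfsg.Agent.R2.T1.N6D.Two

/-!
# S5929, `n = 6`, `p = 2`: the inequality in the form of `Two.lean` (helper9)
-/

set_option autoImplicit false
set_option maxRecDepth 100000

namespace Cfsg.Agent.R2.T1.N6D

open Module Equiv Equiv.Perm
open Cfsg.Agent.H952.F4 (ev)
open Ck (ga gb g5)

universe u

theorem ineq {F : Type u} [Field F] (h2 : (2 : F) = 0) : Ineq F ga gb z5 := by
  intro M _ _ _ ρ hinv hco
  exact Ck.ineq_aux ρ h2 hinv hco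

theorem low {F : Type u} [Field F] (h2 : (2 : F) = 0) : Low F ga gb := by
  intro M _ _ _ ρ
  have h := Ck.low_aux ρ (Ck.two_zero h2)
  omega

theorem ga_pow : ga ^ 3 = 1 := by decide +kernel

theorem ga_ne : ga ≠ 1 := by decide +kernel

theorem gb_eq : gb = ⟨swap 0 1 * swap 1 2 * (swap 3 4 * swap 4 5), mem_alternatingGroup.2 (by decide)⟩ := by
  apply Ck.cd_inj
  rw [gb, Ck.cd_wd Ck.cd_gen]
  decide +kernel

theorem gb_pow : gb ^ 3 = 1 := by rw [gb_eq]; decide +kernel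

theorem gb_ne : gb ≠ 1 := by rw [gb_eq]; decide +kernel

end Cfsg.Agent.R2.T1.N6D
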