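import Mathlib
import Cfsg.Agent.R2.T1.Five.Lin
import Cfsg.Agent.R2.T1.N6D.Pos
import Cfsg.Agent.R2.T1.N6D.Two

/-!
# S5929, `n = 6`, `p = 2`: Scott's lemma twisted by the two-dimensional representations (helper18)

* `sq_triv` : `2 = 0`, `T ^ 4 = 1`: `T ^ 2` acts trivially on a stable subspace of dimension `≤ 2`;
* `tw_zero` : no common fixed vector of `A ⊗ x` and `C ⊗ y` for `x`, `y` with the words `b₁`, `b₂`;
* `sc` : `2 dim ker (T ^ 2 - τ T + 1) ≤ dim M` for `T = ρ z₅` and an arbitrary `A₆`-module `M` over a field of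
  characteristic `2` with `τ ^ 2 + τ = 1`.
-/

set_option autoImplicit false

namespace Cfsg.Agent.R2.T1.N6D

open Module Equiv Equiv.Perm
open Cfsg.Agent.H952.F4 (ev)
open Cfsg.Agent.R2.T1.Five (tw twR twI ker_tw mem_twI span_stable tw_apply mem_ker_qd ev_ge)
open Cfsg.Agent.H952.F4.MaxA (z5' z5'_sign z5'_pow)

universe u v

section gen
variable {F : Type u} [Field F] {G : Type*} [Group G] {M : Type v} [AddCommGroup M] [Module F M]

theorem sq_triv (h2 : (2 : F) = 0) {T : Module.End F M} (hT : T ^ 4 = 1) {W : Submodule F M} [FiniteDimensional F ↥W]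
    (hd : finrank F ↥W ≤ 2) (hW : ∀ w ∈ W, T w ∈ W) {w : M} (hw : w ∈ W) : T (T w) = w := by
  have two : ∀ y : ↥W, y + y = 0 := by
    intro y
    rw [← two_smul F y, h2, zero_smul]
  have htwo : ∀ X : Module.End F ↥W, X + X = 0 := fun X => LinearMap.ext fun y => two (X y)
  set R : Module.End F ↥W := T.restrict hW with hR
  have hRa : ∀ y : ↥W, ((R y : ↥W) : M) = T y := fun y => rfl
  have hR4 : R ^ 4 = 1 := by
    refine LinearMap.ext fun y => Subtype.ext ?_
    have h1 := LinearMap.congr_fun hT (y : M)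
    simp only [pow_succ, pow_zero, one_mul, Module.End.mul_apply, Module.End.one_apply] at h1 ⊢
    exact h1
  have e2 : ∀ X : Module.End F ↥W, (X + 1) * (X + 1) = X * X + 1 := by
    intro X
    have h1 : (X + 1) * (X + 1) = X * X + 1 + (X + X) := by noncomm_ring
    rw [h1, htwo, add_zero]
  have hN4 : (R + 1) ^ 4 = 0 := by
    have h1 : (R + 1) ^ 4 = ((R + 1) * (R + 1)) * ((R + 1) * (R + 1)) := by simp only [pow_succ, pow_zero, one_mul, mul_assoc]
    have h3 : R * R * (R * R) = R ^ 4 := by simp only [pow_succ, pow_zero, one_mul, mul_assoc]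
    rw [h1, e2, e2, h3, hR4, htwo]
  have hN2 : (R + 1) * (R + 1) = 0 := by
    have h1 : LinearMap.ker ((R + 1) ^ finrank F ↥W) = ⊤ := by
      rw [← Module.End.ker_pow_eq_ker_pow_finrank_of_le (f := R + 1) (m := 4) (by omega), hN4, LinearMap.ker_zero]
    rw [LinearMap.ker_eq_top] at h1
    obtain ⟨k, hk⟩ := Nat.exists_eq_add_of_le hd
    rw [← pow_two, hk, pow_add, h1, zero_mul]
  rw [e2] at hN2
  have h5 := congrArg Subtype.val (LinearMap.congr_fun hN2 ⟨w, hw⟩)
  have h6 : T (T w) + w = 0 := h5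
  have h7 : w + w = 0 := by
    rw [← two_smul F w, h2, zero_smul]
  rw [← h7] at h6
  exact add_right_cancel h6

/-- no common fixed vector -/
theorem tw_zero (h2 : (2 : F) = 0) (ρ : Representation F G M) {x y : G}
    (hb1 : (x * y * y * y) ^ 4 = 1) (hb2 : (x * x * y * y * x * x) ^ 4 = 1)
    (hx : (x * y * y * y) * (x * y * y * y) * ((x * x * y * y * x * x) * (x * x * y * y * x * x)) = x)
    {A C : Matrix (Fin 2) (Fin 2) F} (hA : A.det = 1) (hC : C.det = 1) (hAt : A.trace ≠ 0) : twI A C (ρ x) (ρ y) = ⊥ := by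
  rw [eq_bot_iff]
  intro v hv
  obtain ⟨f1, f2⟩ := mem_twI.1 hv
  set W : Submodule F M := Submodule.span F {v.1, v.2} with hWd
  have hfin : FiniteDimensional F ↥W := FiniteDimensional.span_of_finite F (Set.toFinite _)
  have hd : finrank F ↥W ≤ 2 := by
    classical
    have h3 := finrank_span_finset_le_card (R := F) ({v.1, v.2} : Finset M)
    have h4 : ({v.1, v.2} : Finset M).card ≤ 2 := Finset.card_le_two
    rw [Finset.coe_pair] at h3
    exact h3.trans h4
  have sx : ∀ w ∈ W, ρ x w ∈ W := span_stable hA f1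
  have sy : ∀ w ∈ W, ρ y w ∈ W := span_stable hC f2
  have hm : ∀ (g h : G), (∀ w ∈ W, ρ g w ∈ W) → (∀ w ∈ W, ρ h w ∈ W) → ∀ w ∈ W, ρ (g * h) w ∈ W := by
    intro g h hg hh w hw
    rw [map_mul, Module.End.mul_apply]
    exact hg _ (hh _ hw)
  have s1 : ∀ w ∈ W, ρ (x * y * y * y) w ∈ W := hm _ _ (hm _ _ (hm _ _ sx sy) sy) sy
  have s2 : ∀ w ∈ W, ρ (x * x * y * y * x * x) w ∈ W := hm _ _ (hm _ _ (hm _ _ (hm _ _ (hm _ _ sx sx) sy) sy) sx) sx
  have hxw : ∀ w ∈ W, ρ x w = w := by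
    intro w hw
    have e1 : ∀ u ∈ W, ρ (x * y * y * y) (ρ (x * y * y * y) u) = u := fun u hu =>
      sq_triv h2 (T := ρ (x * y * y * y)) (by rw [← map_pow, hb1, map_one]) hd s1 hu
    have e2 : ∀ u ∈ W, ρ (x * x * y * y * x * x) (ρ (x * x * y * y * x * x) u) = u := fun u hu =>
      sq_triv h2 (T := ρ (x * x * y * y * x * x)) (by rw [← map_pow, hb2, map_one]) hd s2 hu
    conv_lhs => rw [← hx]
    rw [map_mul, map_mul _ (x * y * y * y) (x * y * y * y), map_mul _ (x * x * y * y * x * x) (x * x * y * y * x * x),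
      Module.End.mul_apply, Module.End.mul_apply, Module.End.mul_apply, e2 w hw, e1 w hw]
  have m1 : v.1 ∈ W := Submodule.subset_span (by simp)
  have m2 : v.2 ∈ W := Submodule.subset_span (by simp)
  rw [tw_apply, hxw _ m1, hxw _ m2] at f1
  have g1 : A 0 0 • v.1 + A 0 1 • v.2 = v.1 := congrArg Prod.fst f1
  have g2 : A 1 0 • v.1 + A 1 1 • v.2 = v.2 := congrArg Prod.snd f1
  rw [Matrix.det_fin_two] at hA
  rw [Matrix.trace_fin_two] at hAt
  have k1 : (A 0 0 + A 1 1) • v.1 = 0 := by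
    linear_combination (norm := module) hA • v.1 + h2 • v.1 - (A 1 1 - 1) • g1 + A 0 1 • g2
  have k2 : (A 0 0 + A 1 1) • v.2 = 0 := by
    linear_combination (norm := module) hA • v.2 + h2 • v.2 - (A 0 0 - 1) • g2 + A 1 0 • g1
  exact (Submodule.mem_bot F).2 (Prod.ext ((smul_eq_zero.1 k1).resolve_left hAt) ((smul_eq_zero.1 k2).resolve_left hAt))

/-- the kernels of `T ^ 2 - τ T + 1` for conjugate elements -/
theorem qd_cj (τ : F) (ρ : Representation F G M) (g x : G) :
    finrank F ↥(LinearMap.ker (Five.qd τ (ρ (g * x * g⁻¹)))) = finrank F ↥(LinearMap.ker (Five.qd τ (ρ x))) := by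
  have hinv : ∀ y : M, ρ g⁻¹ (ρ g y) = y := fun y => by
    rw [← Module.End.mul_apply, ← map_mul, inv_mul_cancel, map_one, Module.End.one_apply]
  have hinv' : ∀ y : M, ρ g (ρ g⁻¹ y) = y := fun y => by
    rw [← Module.End.mul_apply, ← map_mul, mul_inv_cancel, map_one, Module.End.one_apply]
  have hcj : ∀ y : M, ρ (g * x * g⁻¹) y = ρ g (ρ x (ρ g⁻¹ y)) := fun y => by
    rw [map_mul, map_mul, Module.End.mul_apply, Module.End.mul_apply]
  have key : LinearMap.ker (Five.qd τ (ρ (g * x * g⁻¹))) = (LinearMap.ker (Five.qd τ (ρ x))).map (ρ g) := by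
    ext y
    rw [Submodule.mem_map, mem_ker_qd, hcj, hcj, hinv]
    constructor
    · intro h
      refine ⟨ρ g⁻¹ y, ?_, hinv' y⟩
      rw [mem_ker_qd]
      have h1 := congrArg (ρ g⁻¹) h
      rwa [hinv, map_sub, map_smul, hinv] at h1
    · rintro ⟨u, hu, rfl⟩
      rw [mem_ker_qd] at hu
      rw [hinv, hu, map_sub, map_smul]
  have hinj : Function.Injective (ρ g) := fun a b h => by
    have h1 := congrArg (ρ g⁻¹) h
    rwa [hinv, hinv] at h1
  rw [key]
  exact Five.finrank_map_inj hinj _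

theorem xi (ρ : Representation F G M) (h : G) (v : M) : ρ h (ρ h⁻¹ v) = v := by
  rw [← Module.End.mul_apply, ← map_mul, mul_inv_cancel, map_one, Module.End.one_apply]

/-- no common fixed functional -/
theorem dual_zero (h2 : (2 : F) = 0) {τ : F} (hτ0 : τ ≠ 0) (ρ : Representation F G M) {x y : G}
    (hb1 : (x * y * y * y) ^ 4 = 1) (hb2 : (x * x * y * y * x * x) ^ 4 = 1)
    (hx : (x * y * y * y) * (x * y * y * y) * ((x * x * y * y * x * x) * (x * x * y * y * x * x)) = x)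
    {f : Module.Dual F (M × M)} (fx : ∀ v, f (tw !![0, 1; 1, τ] (ρ x) v) = f v)
    (fy : ∀ v, f (tw !![τ, 1; 1, 0] (ρ y) v) = f v) : f = 0 := by
  obtain ⟨f1, f2, hff⟩ : ∃ f1 f2 : Module.Dual F M, ∀ a b : M, f (a, b) = f1 a + f2 b := by
    refine ⟨f.comp (LinearMap.inl F M M), f.comp (LinearMap.inr F M M), fun a b => ?_⟩
    rw [LinearMap.comp_apply, LinearMap.comp_apply, ← map_add, LinearMap.inl_apply, LinearMap.inr_apply,
      Prod.mk_add_mk, add_zero, zero_add]
  have dA : (!![0, 1; 1, τ] : Matrix (Fin 2) (Fin 2) F).det = 1 := by rw [Matrix.det_fin_two_of]; linear_combination -h2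
  have dC : (!![τ, 1; 1, 0] : Matrix (Fin 2) (Fin 2) F).det = 1 := by rw [Matrix.det_fin_two_of]; linear_combination -h2
  have tC : (!![τ, 1; 1, 0] : Matrix (Fin 2) (Fin 2) F).trace = τ := by rw [Matrix.trace_fin_two_of]; ring
  have gx : ∀ a b : M, f (ρ x b, ρ x a + τ • ρ x b) = f (a, b) := by
    intro a b
    have h := fx (a, b)
    rw [tw_apply] at h
    have h' : f ((0 : F) • ρ x a + (1 : F) • ρ x b, (1 : F) • ρ x a + τ • ρ x b) = f (a, b) := h
    rwa [zero_smul, zero_add, one_smul, one_smul] at h'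
  have gy : ∀ a b : M, f (τ • ρ y a + ρ y b, ρ y a) = f (a, b) := by
    intro a b
    have h := fy (a, b)
    rw [tw_apply] at h
    have h' : f (τ • ρ y a + (1 : F) • ρ y b, (1 : F) • ρ y a + (0 : F) • ρ y b) = f (a, b) := h
    rwa [zero_smul, add_zero, one_smul, one_smul] at h'
  have hmem : ((f1, f2) : Module.Dual F M × Module.Dual F M) ∈
      twI !![τ, 1; 1, 0] !![0, 1; 1, τ] (ρ.dual x) (ρ.dual y) := by
    rw [mem_twI]
    constructor
    · rw [tw_apply]
      refine Prod.ext (LinearMap.ext fun m => ?_) (LinearMap.ext fun m => ?_)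
      · have h5 := gx (τ • ρ x⁻¹ m) (ρ x⁻¹ m)
        rw [map_smul, xi, hff, hff, ← add_smul, show τ + τ = 0 by linear_combination τ * h2, zero_smul, map_zero,
          map_smul, add_zero, smul_eq_mul] at h5
        show τ * f1 (ρ x⁻¹ m) + 1 * f2 (ρ x⁻¹ m) = f1 m
        rw [h5, one_mul]
      · have h5 := gx (ρ x⁻¹ m) 0
        rw [map_zero, xi, hff, hff, smul_zero, add_zero, map_zero, map_zero, zero_add, add_zero] at h5
        show 1 * f1 (ρ x⁻¹ m) + 0 * f2 (ρ x⁻¹ m) = f2 m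
        rw [h5, one_mul, zero_mul, add_zero]
    · rw [tw_apply]
      refine Prod.ext (LinearMap.ext fun m => ?_) (LinearMap.ext fun m => ?_)
      · have h5 := gy 0 (ρ y⁻¹ m)
        rw [map_zero, xi, hff, hff, smul_zero, zero_add, map_zero, map_zero, zero_add, add_zero] at h5
        show 0 * f1 (ρ y⁻¹ m) + 1 * f2 (ρ y⁻¹ m) = f1 m
        rw [h5, one_mul, zero_mul, zero_add]
      · have h5 := gy (ρ y⁻¹ m) (τ • ρ y⁻¹ m)
        rw [map_smul, xi, hff, hff, ← add_smul, show τ + τ = 0 by linear_combination τ * h2, zero_smul, map_zero,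
          map_smul, zero_add, smul_eq_mul] at h5
        show 1 * f1 (ρ y⁻¹ m) + τ * f2 (ρ y⁻¹ m) = f2 m
        rw [h5, one_mul]
  rw [tw_zero h2 ρ.dual hb1 hb2 hx dC dA (by rw [tC]; exact hτ0), Submodule.mem_bot] at hmem
  have k1 : f1 = 0 := congrArg Prod.fst hmem
  have k2 : f2 = 0 := congrArg Prod.snd hmem
  refine LinearMap.ext fun v => ?_
  obtain ⟨a, b⟩ := v
  rw [hff, k1, k2, LinearMap.zero_apply, LinearMap.zero_apply, add_zero, LinearMap.zero_apply]

theorem sc_gen [FiniteDimensional F M] (h2 : (2 : F) = 0) {τ : F} (hτ : τ * τ + τ - 1 = 0) (ρ : Representation F G M)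
    {x y g : G} (hg : g * x * g⁻¹ = y) (ht : (x * y) ^ 2 = 1)
    (hb1 : (x * y * y * y) ^ 4 = 1) (hb2 : (x * x * y * y * x * x) ^ 4 = 1)
    (hx : (x * y * y * y) * (x * y * y * y) * ((x * x * y * y * x * x) * (x * x * y * y * x * x)) = x) :
    2 * finrank F ↥(LinearMap.ker (Five.qd τ (ρ x))) ≤ finrank F M := by
  have hτ0 : τ ≠ 0 := by
    rintro rfl
    apply one_ne_zero (α := F)
    linear_combination -hτ
  have hchar : CharP F 2 := CharTwo.of_one_ne_zero_of_two_eq_zero one_ne_zero h2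
  have tt : τ + τ = 0 := by linear_combination τ * h2
  obtain ⟨A, hA⟩ : ∃ A : Matrix (Fin 2) (Fin 2) F, A = !![0, 1; 1, τ] := ⟨_, rfl⟩
  obtain ⟨C, hC⟩ : ∃ C : Matrix (Fin 2) (Fin 2) F, C = !![τ, 1; 1, 0] := ⟨_, rfl⟩
  have dA : A.det = 1 := by rw [hA, Matrix.det_fin_two_of]; linear_combination -h2
  have dC : C.det = 1 := by rw [hC, Matrix.det_fin_two_of]; linear_combination -h2
  have tA : A.trace = τ := by rw [hA, Matrix.trace_fin_two_of]; ring
  have tC : C.trace = τ := by rw [hC, Matrix.trace_fin_two_of]; ring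
  have hAC : A * C = 1 := by
    rw [hA, hC, Matrix.mul_fin_two, Matrix.one_fin_two]
    congr 1
    ext i j
    fin_cases i <;> fin_cases j <;> simp [tt]
  have e1 := ker_tw (C := A) dA (Or.inl (by rw [hA]; exact one_ne_zero)) (ρ x)
  have e2 := ker_tw (C := C) dC (Or.inl (by rw [hC]; exact one_ne_zero)) (ρ y)
  rw [tA] at e1
  rw [tC, ← hg, qd_cj, hg] at e2
  let a : Matrix.SpecialLinearGroup (Fin 2) F × G := (⟨A, dA⟩, x)
  let c : Matrix.SpecialLinearGroup (Fin 2) F × G := (⟨C, dC⟩, y)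
  let S : Subgroup (Matrix.SpecialLinearGroup (Fin 2) F × G) := Subgroup.closure {a, c}
  have ha : a ∈ S := Subgroup.subset_closure (by simp)
  have hc : c ∈ S := Subgroup.subset_closure (by simp)
  let σ : Representation F ↥S (M × M) := MonoidHom.comp (twR ρ) S.subtype
  have hgen : Subgroup.closure {(⟨a, ha⟩ : ↥S), ⟨c, hc⟩} = ⊤ := by
    have h := Subgroup.closure_closure_coe_preimage (k := ({a, c} : Set (Matrix.SpecialLinearGroup (Fin 2) F × G)))
    rw [← h]
    congr 1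
    ext z
    simp only [Set.mem_insert_iff, Set.mem_singleton_iff, Set.mem_preimage, Subtype.ext_iff]
  have hS := Cfsg.Agent.H952.F4.Scott.scott σ hgen
  have hσ : σ (⟨a, ha⟩ * ⟨c, hc⟩) = tw (A * C) (ρ (x * y)) := rfl
  have h3 : finrank F (M × M) ≤ 2 * ev (σ (⟨a, ha⟩ * ⟨c, hc⟩)) 1 := by
    refine ev_ge (p := 2) ?_
    rw [hσ, hAC, pow_two, ← Five.tw_mul, one_mul, ← map_mul, ← pow_two, ht, map_one, Five.tw_one]
  have h1 : ∀ z : ↥S, ev (σ z) 1 = finrank F ↥(LinearMap.ker (σ z - 1)) := fun z => by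
    rw [ev, Module.End.eigenspace_def, one_smul]
  have hi : finrank F ↥σ.invariants = 0 := by
    have h4 : σ.invariants ≤ twI A C (ρ x) (ρ y) := by
      intro v hv
      rw [Representation.mem_invariants] at hv
      exact mem_twI.2 ⟨hv ⟨a, ha⟩, hv ⟨c, hc⟩⟩
    rw [tw_zero h2 ρ hb1 hb2 hx dA dC (by rw [tA]; exact hτ0), le_bot_iff] at h4
    rw [h4, finrank_bot]
  have hj : finrank F ↥σ.dual.invariants = 0 := by
    have h4 : σ.dual.invariants = ⊥ := by
      rw [eq_bot_iff]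
      intro f hf
      rw [Representation.mem_invariants] at hf
      have fz : ∀ (z : ↥S) (v : M × M), f (σ z v) = f v := by
        intro z v
        have h5 := LinearMap.congr_fun (hf z⁻¹) v
        rw [Representation.dual_apply] at h5
        rw [inv_inv] at h5
        exact h5
      refine (Submodule.mem_bot F).2 (dual_zero h2 hτ0 ρ hb1 hb2 hx ?_ ?_)
      · rw [← hA]
        exact fz ⟨a, ha⟩
      · rw [← hC]
        exact fz ⟨c, hc⟩
    rw [h4, finrank_bot]
  rw [hi, hj, h1, h1, Module.finrank_prod] at hS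
  rw [Module.finrank_prod] at h3
  have e1' : finrank F ↥(LinearMap.ker (Five.qd τ (ρ x))) ≤ finrank F ↥(LinearMap.ker (σ ⟨a, ha⟩ - 1)) := e1
  have e2' : finrank F ↥(LinearMap.ker (Five.qd τ (ρ x))) ≤ finrank F ↥(LinearMap.ker (σ ⟨c, hc⟩ - 1)) := e2
  omega

end gen

/-! ### the elements of `A₆` -/

def gS : Perm (Fin 6) := swap 1 3 * swap 4 5

theorem gS_sign : sign gS = 1 := by decide

theorem w_t : (z5' * (gS * z5' * gS⁻¹)) ^ 2 = 1 := by decide +kernel

theorem w_b1 : (z5' * (gS * z5' * gS⁻¹) * (gS * z5' * gS⁻¹) * (gS * z5' * gS⁻¹)) ^ 4 = 1 := by decide +kernel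

theorem w_b2 : (z5' * z5' * (gS * z5' * gS⁻¹) * (gS * z5' * gS⁻¹) * z5' * z5') ^ 4 = 1 := by decide +kernel

theorem w_x : (z5' * (gS * z5' * gS⁻¹) * (gS * z5' * gS⁻¹) * (gS * z5' * gS⁻¹)) *
    (z5' * (gS * z5' * gS⁻¹) * (gS * z5' * gS⁻¹) * (gS * z5' * gS⁻¹)) *
    ((z5' * z5' * (gS * z5' * gS⁻¹) * (gS * z5' * gS⁻¹) * z5' * z5') *
    (z5' * z5' * (gS * z5' * gS⁻¹) * (gS * z5' * gS⁻¹) * z5' * z5')) = z5' := by decide +kernel

/-- Scott's lemma twisted by the two-dimensional representations of `A₅` -/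
theorem sc {F : Type u} [Field F] {M : Type v} [AddCommGroup M] [Module F M] [FiniteDimensional F M]
    (h2 : (2 : F) = 0) {τ : F} (hτ : τ * τ + τ - 1 = 0) (ρ : Representation F ↥(alternatingGroup (Fin 6)) M) :
    2 * finrank F ↥(LinearMap.ker (Five.qd τ (ρ z5))) ≤ finrank F M :=
  sc_gen h2 hτ ρ (x := z5) (g := ⟨gS, mem_alternatingGroup.2 gS_sign⟩) rfl (Subtype.ext w_t) (Subtype.ext w_b1)
    (Subtype.ext w_b2) (Subtype.ext w_x)

end Cfsg.Agent.R2.T1.N6D
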